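/-
In the presented Suzuki group the subgroup generated by a, …, f is the Chevalley group G₂(4) (helper16).
-/
import Cfsg.Agent.Lib.ToddCox.SuzCov.Base
import Cfsg.Agent.Lib.ToddCox.G24O.Main
import Cfsg.Agent.Lib.ToddCox.F4
import Cfsg.Agent.Lib.ToddCox.CentQuot
import Cfsg.Prelude.Def_ChevG2
import Cfsg.Agent.S1059

set_option autoImplicit false
set_option maxRecDepth 100000
set_option maxHeartbeats 1000000

namespace Cfsg.Agent.Lib.ToddCox.SuzCov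

open Cfsg Cfsg.Spor Cfsg.Agent.Lib.ToddCox.SuzO
open Cfsg.Agent.Lib.ToddCox.Suz1782 (rels RL sg LT Iv Sl letters rep_exists tab inv reach index_eq)
open Cfsg.Lie

abbrev QG : Type := PresentedGroup (coxRelators OPG24.edges ∪ {r | r ∈ OPG24.extra})

def waG : OPG24.Gen → List ℕ
  | .a => [0]
  | .b => [1]
  | .c => [2]
  | .d => [3]
  | .e => [4]
  | .f => [5]

theorem G_let : ∀ r ∈ coxList OPG24.edges ++ OPG24.extra, ∀ a ∈ wsubst waG inv r, a < 7 := by decide +kernel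
theorem G_fix : ∀ r ∈ coxList OPG24.edges ++ OPG24.extra, ∀ b ∈ baseL, tabW tab (wsubst waG inv r) b = b := by decide +kernel

theorem G_rel : ∀ r ∈ coxList OPG24.edges ++ OPG24.extra, FreeGroup.lift (fun a => wordVal gen (waG a)) r = 1 := by
  intro r hr
  rw [lift_eq_wsubst gen inv letters.genInv]
  exact word_one (G_let r hr) (G_fix r hr)

noncomputable def φG : QG →* PresentedGroup rels := presMap OPG24.edges OPG24.extra _ G_rel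

theorem φG_ne : φG (PresentedGroup.of .a) ≠ 1 := by
  show presMap OPG24.edges OPG24.extra _ G_rel (PresentedGroup.of .a) ≠ 1
  rw [presMap_of]
  exact word_ne_one (by decide +kernel) (k := 2) (by norm_num) (by decide +kernel)

theorem φG_inj : Function.Injective φG := injective_of_simple G24O.main.1 φG φG_ne

abbrev HG : Subgroup (PresentedGroup rels) := subG rels Sl

theorem waG_mem : ∀ a, ∀ y ∈ waG a, LT.getD y 1 ∈ Sl := by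
  intro a
  cases a <;> decide +kernel

theorem φG_mem (q : QG) : φG q ∈ HG := by
  have : φG.range ≤ HG := by
    apply range_le_of_gens
    intro a
    show presMap OPG24.edges OPG24.extra _ G_rel (PresentedGroup.of a) ∈ _
    rw [presMap_of]
    apply wordVal_mem
    intro y hy
    have h2 : PresentedGroup.mk rels (LT.getD y 1) ∈ HG := subG_mem (waG_mem a y hy)
    exact h2
  exact this ⟨q, rfl⟩

noncomputable def ψG : QG →* HG := φG.codRestrict _ φG_mem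

theorem ψG_inj : Function.Injective ψG := by
  intro a b hab
  exact φG_inj (congrArg Subtype.val hab)

theorem card_QG : Nat.card QG = 251596800 := G24O.main.2

theorem card_HG : Nat.card HG = 251596800 := by
  obtain ⟨ρ, hρ, hinj, hcard⟩ := rep_faithful
  have h := Subgroup.card_mul_index HG
  rw [index_eq, hcard] at h
  exact Nat.eq_of_mul_eq_mul_right (by norm_num : 0 < 1782) (h.trans (by norm_num))

theorem ψG_bij : Function.Bijective ψG := by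
  have : Finite HG := Nat.finite_of_card_ne_zero (by rw [card_HG]; norm_num)
  have : Finite QG := Nat.finite_of_card_ne_zero (by rw [card_QG]; norm_num)
  exact (Nat.bijective_iff_injective_and_card ψG).mpr ⟨ψG_inj, by rw [card_QG, card_HG]⟩

/-! The matrices. -/

abbrev IdxG : Type := chevG2.Idx
abbrev MG : Type := Matrix IdxG IdxG F4

def ordG : IdxG → ℕ
  | .inl i => i.1
  | .inr u => 2 + u.1

def mkM (A : List (List F4)) : MG := Matrix.of fun i j => (A.getD (ordG i) []).getD (ordG j) F4.o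

def xM (r : Fin chevG2.nroots) (t : F4) : MG := chevG2.xMat F4 r t

def ma : MG := mkM [[.l, .o, .v, .v, .o, .l, .o, .o, .o, .v, .v, .o, .l, .o], [.l, .l, .v, .o, .o, .o, .o, .o, .o, .v, .o, .o, .o, .o], [.o, .o, .o, .l, .v, .w, .o, .l, .o, .o, .o, .o, .o, .o], [.o, .l, .l, .v, .l, .l, .w, .w, .l, .v, .v, .w, .l, .o], [.o, .o, .o, .l, .w, .w, .o, .v, .w, .o, .l, .v, .w, .o], [.o, .v, .o, .w, .l, .v, .l, .w, .v, .w, .w, .l, .v, .o], [.v, .v, .w, .o, .l, .l, .o, .l, .o, .w, .w, .o, .v, .o], [.o, .o, .o, .v, .w, .l, .o, .v, .l, .o, .v, .w, .l, .o], [.o, .o, .l, .w, .v, .w, .l, .v, .v, .l, .w, .v, .w, .l], [.o, .o, .o, .o, .v, .o, .o, .l, .o, .o, .l, .o, .w, .o], [.o, .l, .v, .v, .l, .l, .o, .w, .l, .l, .v, .w, .l, .w], [.o, .o, .l, .l, .v, .l, .v, .v, .w, .l, .l, .w, .l, .v], [.o, .v, .w, .w, .l, .v, .o, .w, .v, .o, .w, .l, .v, .l], [.v, .v, .w, .w,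 .l, .v, .o, .l, .o, .w, .o, .o, .l, .o]]
def mb : MG := mkM [[.l, .o, .o, .o, .o, .o, .o, .o, .o, .o, .o, .o, .l, .v], [.l, .l, .o, .o, .o, .o, .o, .o, .o, .o, .o, .o, .o, .v], [.v, .v, .o, .v, .o, .o, .o, .o, .w, .o, .o, .o, .v, .w], [.o, .l, .w, .o, .o, .o, .o, .w, .o, .o, .o, .o, .l, .v], [.o, .o, .o, .o, .l, .o, .o, .o, .o, .l, .v, .o, .o, .o], [.o, .o, .o, .o, .o, .o, .v, .o, .o, .o, .o, .v, .o, .o], [.o, .o, .o, .o, .o, .w, .o, .o, .o, .o, .o, .l, .o, .o], [.o, .o, .o, .o, .o, .o, .o, .o, .w, .o, .o, .o, .o, .w], [.o, .o, .o, .o, .o, .o, .o, .v, .o, .o, .o, .o, .w, .o], [.o, .o, .o, .o, .o, .o, .o, .o, .o, .o, .v, .o, .o, .o], [.o, .o, .o, .o, .o, .o, .o, .o, .o, .w, .o, .o, .o, .o], [.o, .o, .o, .o, .o, .o, .o, .o, .o, .o, .o, .l, .o, .o], [.o, .o, .o, .o, .o, .o, .o, .o, .o, .o, .o, .o, .o, .v], [.o, .o, .o, .o, .o, .o, .o, .o, .o, .o, .o,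 .o, .w, .o]]
def mc : MG := mkM [[.l, .o, .l, .l, .o, .w, .o, .o, .o, .o, .o, .o, .o, .o], [.o, .l, .o, .l, .v, .w, .o, .l, .o, .o, .o, .o, .o, .o], [.o, .o, .l, .o, .o, .o, .o, .o, .o, .o, .o, .o, .o, .o], [.o, .o, .l, .l, .o, .o, .o, .o, .o, .o, .o, .o, .o, .o], [.o, .o, .w, .o, .l, .o, .o, .o, .o, .o, .o, .o, .o, .o], [.o, .o, .v, .o, .o, .l, .o, .o, .o, .o, .o, .o, .o, .o], [.o, .o, .o, .v, .o, .l, .l, .o, .o, .o, .o, .o, .o, .o], [.o, .o, .l, .o, .o, .o, .o, .l, .o, .o, .o, .o, .o, .o], [.l, .o, .l, .o, .v, .w, .w, .l, .l, .o, .o, .o, .o, .o], [.o, .o, .o, .o, .l, .o, .o, .w, .o, .l, .o, .o, .o, .o], [.w, .w, .w, .w, .o, .v, .o, .w, .o, .l, .l, .o, .o, .o], [.v, .o, .v, .v, .w, .o, .l, .v, .o, .o, .o, .l, .o, .o], [.l, .l, .l, .l, .v, .w, .o, .o, .o, .v, .o, .o, .l, .o], [.o, .l, .l, .l, .v, .w, .o, .l, .l, .o, .v, .w, .l, .l]]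
def md : MG := mkM [[.v, .v, .o, .v, .w, .w, .w, .l, .w, .l, .l, .o, .w, .w], [.w, .v, .o, .v, .w, .w, .o, .l, .l, .l, .v, .v, .o, .v], [.v, .w, .v, .l, .l, .v, .v, .l, .v, .l, .l, .o, .w, .w], [.o, .w, .o, .w, .l, .v, .v, .w, .o, .l, .l, .o, .w, .w], [.v, .o, .w, .w, .v, .o, .o, .v, .v, .v, .v, .o, .o, .o], [.v, .l, .o, .v, .w, .o, .v, .o, .l, .v, .v, .v, .l, .l], [.l, .l, .l, .w, .w, .l, .w, .w, .v, .v, .v, .v, .l, .l], [.l, .w, .w, .l, .v, .w, .o, .v, .w, .v, .l, .v, .o, .v], [.l, .l, .v, .v, .l, .o, .w, .l, .v, .w, .o, .v, .w, .l], [.o, .w, .l, .o, .w, .o, .o, .w, .o, .w, .v, .o, .v, .v], [.w, .w, .o, .l, .v, .o, .o, .o, .w, .l, .o, .o, .v, .v], [.w, .w, .v, .w, .l, .v, .w, .l, .v, .w, .w, .v, .l, .l], [.v, .v, .o, .v, .w, .l, .o, .v, .l, .w, .v, .w, .w, .l], [.o, .o, .w, .o, .v, .o, .l, .v, .w, .l, .o, .w, .o, .v]]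
def me : MG := mkM [[.v, .o, .l, .o, .l, .w, .w, .o, .w, .w, .l, .v, .v, .l], [.w, .v, .o, .v, .o, .w, .l, .o, .v, .o, .w, .v, .v, .l], [.l, .l, .l, .o, .v, .w, .w, .l, .l, .o, .v, .w, .l, .o], [.v, .v, .v, .o, .w, .l, .l, .w, .v, .v, .w, .v, .v, .l], [.v, .v, .l, .o, .v, .l, .w, .v, .l, .l, .w, .l, .v, .w], [.w, .l, .l, .o, .l, .w, .w, .w, .w, .o, .l, .w, .w, .v], [.o, .w, .w, .o, .o, .v, .v, .l, .o, .l, .o, .l, .v, .o], [.v, .w, .w, .l, .w, .l, .l, .v, .w, .o, .w, .l, .v, .l], [.o, .o, .l, .w, .v, .w, .l, .v, .v, .l, .w, .v, .w, .l], [.l, .w, .v, .l, .l, .w, .o, .l, .l, .v, .w, .w, .l, .w], [.w, .w, .v, .v, .w, .o, .w, .w, .l, .v, .w, .l, .l, .w], [.o, .l, .w, .l, .w, .w, .l, .v, .w, .o, .l, .v, .w, .v], [.v, .o, .l, .o, .l, .v, .l, .w, .l, .o, .o, .o, .o, .o], [.o, .l, .o, .l, .w, .v, .v, .l, .w, .w, .l, .l, .v, .l]]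
def mf : MG := mkM [[.l, .o, .w, .w, .o, .v, .o, .o, .o, .w, .w, .o, .v, .o], [.w, .l, .l, .v, .w, .l, .o, .w, .l, .l, .v, .w, .l, .o], [.o, .o, .w, .v, .w, .l, .o, .v, .o, .o, .o, .o, .o, .o], [.l, .v, .o, .v, .l, .w, .l, .v, .w, .l, .l, .v, .w, .o], [.w, .o, .l, .w, .o, .v, .o, .l, .v, .l, .w, .l, .v, .o], [.v, .w, .w, .v, .w, .v, .v, .o, .l, .v, .v, .w, .l, .o], [.l, .w, .v, .w, .w, .o, .w, .w, .v, .v, .v, .l, .l, .o], [.l, .o, .v, .l, .v, .w, .o, .w, .w, .v, .l, .v, .w, .o], [.w, .o, .w, .o, .l, .v, .v, .l, .w, .w, .o, .l, .v, .v], [.o, .o, .o, .o, .w, .o, .o, .v, .o, .w, .v, .o, .l, .o], [.l, .v, .l, .l, .l, .w, .o, .v, .w, .o, .v, .v, .w, .l], [.w, .o, .w, .w, .l, .l, .w, .l, .v, .w, .w, .o, .l, .w], [.v, .w, .v, .v, .w, .l, .o, .o, .l, .w, .v, .w, .v, .v], [.l, .w, .v, .v, .w, .l, .o, .w, .v, .v, .w, .l, .o, .w]]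

def mT : OPG24.Gen → MG
  | .a => ma
  | .b => mb
  | .c => mc
  | .d => md
  | .e => me
  | .f => mf

theorem mT_sq : ∀ a, mT a * mT a = 1 := by
  intro a
  cases a <;> decide +kernel

def TG (a : OPG24.Gen) : GL IdxG F4 := ⟨mT a, mT a, mT_sq a, mT_sq a⟩

def xl0 : MG := mkM [[.l, .o, .o, .o, .o, .o, .o, .o, .o, .l, .o, .o, .o, .o], [.o, .l, .o, .o, .o, .o, .o, .o, .o, .o, .o, .o, .o, .o], [.o, .o, .l, .o, .o, .o, .o, .o, .o, .o, .o, .o, .o, .o], [.o, .o, .o, .l, .l, .l, .o, .l, .o, .o, .o, .o, .o, .o], [.o, .o, .o, .o, .l, .o, .o, .l, .o, .o, .o, .o, .o, .o], [.o, .o, .o, .o, .o, .l, .o, .l, .o, .o, .o, .o, .o, .o], [.o, .l, .o, .o, .o, .o, .l, .o, .o, .l, .o, .o, .o, .o], [.o, .o, .o, .o, .o, .o, .o, .l, .o, .o, .o, .o, .o, .o], [.o, .o, .o, .o, .o, .o, .o, .o, .l, .o, .l, .l, .l, .o], [.o, .o, .o, .o, .o, .o, .o, .o, .o, .l, .o, .o, .o, .o],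 [.o, .o, .o, .o, .o, .o, .o, .o, .o, .o, .l, .o, .l, .o], [.o, .o, .o, .o, .o, .o, .o, .o, .o, .o, .o, .l, .l, .o], [.o, .o, .o, .o, .o, .o, .o, .o, .o, .o, .o, .o, .l, .o], [.o, .o, .o, .o, .o, .o, .o, .o, .o, .o, .o, .o, .o, .l]]
theorem xl0_eq : xM ⟨4, by decide⟩ .l = xl0 := by decide +kernel
theorem xl0_sq : xl0 * xl0 = 1 := by decide +kernel
def xG0 : GL IdxG F4 := ⟨xl0, xl0, xl0_sq, xl0_sq⟩
theorem xG0_mem : xG0 ∈ chevG2.group F4 := Subgroup.subset_closure ⟨⟨4, by decide⟩, .l, xl0_eq.symm⟩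

def xl1 : MG := mkM [[.l, .o, .o, .o, .o, .o, .w, .o, .o, .o, .o, .o, .o, .o], [.o, .l, .o, .o, .o, .o, .o, .o, .o, .o, .o, .o, .o, .o], [.o, .o, .l, .o, .o, .o, .o, .o, .o, .o, .o, .o, .o, .o], [.o, .o, .o, .l, .o, .o, .o, .o, .o, .o, .o, .o, .o, .o], [.o, .o, .o, .w, .l, .o, .o, .o, .o, .o, .o, .o, .o, .o], [.o, .o, .o, .v, .o, .l, .o, .o, .o, .o, .o, .o, .o, .o], [.o, .o, .o, .o, .o, .o, .l, .o, .o, .o, .o, .o, .o, .o], [.o, .o, .o, .l, .v, .w, .o, .l, .o, .o, .o, .o, .o, .o], [.o, .o, .o, .o, .o, .o, .o, .o, .l, .o, .o, .o, .o, .o], [.o, .w, .o, .o, .o, .o, .v, .o, .o, .l, .o, .o, .o, .o], [.o, .o, .o, .o, .o, .o, .o, .o, .w, .o, .l, .o, .o, .o], [.o, .o, .o, .o, .o, .o, .o, .o, .v, .o, .o, .l, .o, .o], [.o, .o, .o, .o, .o, .o, .o, .o, .l, .o, .v, .w, .l, .o], [.o, .o, .o, .o, .o, .o, .o, .o, .o, .o, .o, .o, .o, .l]]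
theorem xl1_eq : xM ⟨7, by decide⟩ .w = xl1 := by decide +kernel
theorem xl1_sq : xl1 * xl1 = 1 := by decide +kernel
def xG1 : GL IdxG F4 := ⟨xl1, xl1, xl1_sq, xl1_sq⟩
theorem xG1_mem : xG1 ∈ chevG2.group F4 := Subgroup.subset_closure ⟨⟨7, by decide⟩, .w, xl1_eq.symm⟩

def xl2 : MG := mkM [[.l, .o, .o, .o, .o, .o, .o, .o, .o, .o, .o, .o, .o, .o], [.o, .l, .o, .o, .o, .o, .o, .o, .l, .o, .o, .o, .o, .o], [.o, .o, .l, .l, .o, .o, .o, .o, .o, .o, .o, .o, .o, .o], [.o, .o, .o, .l, .o, .o, .o, .o, .o, .o, .o, .o, .o, .o], [.o, .o, .o, .o, .l, .o, .o, .o, .o, .o, .o, .o, .o, .o], [.o, .o, .o, .o, .o, .l, .l, .o, .o, .o, .o, .o, .o, .o], [.o, .o, .o, .o, .o, .o, .l, .o, .o, .o, .o, .o, .o, .o], [.l, .o, .o, .o, .o, .o, .o, .l, .l, .o, .o, .o, .o, .o], [.o, .o, .o, .o, .o, .o, .o, .o, .l, .o, .o, .o, .o, .o], [.o, .o, .o, .o, .o, .o, .o, .o, .o, .l, .l,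 .o, .o, .o], [.o, .o, .o, .o, .o, .o, .o, .o, .o, .o, .l, .o, .o, .o], [.o, .o, .o, .o, .o, .o, .o, .o, .o, .o, .o, .l, .o, .o], [.o, .o, .o, .o, .o, .o, .o, .o, .o, .o, .o, .o, .l, .l], [.o, .o, .o, .o, .o, .o, .o, .o, .o, .o, .o, .o, .o, .l]]
theorem xl2_eq : xM ⟨5, by decide⟩ .l = xl2 := by decide +kernel
theorem xl2_sq : xl2 * xl2 = 1 := by decide +kernel
def xG2 : GL IdxG F4 := ⟨xl2, xl2, xl2_sq, xl2_sq⟩
theorem xG2_mem : xG2 ∈ chevG2.group F4 := Subgroup.subset_closure ⟨⟨5, by decide⟩, .l, xl2_eq.symm⟩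

def xl3 : MG := mkM [[.l, .o, .o, .o, .o, .o, .o, .o, .o, .o, .o, .o, .o, .o], [.o, .l, .o, .o, .o, .o, .o, .w, .o, .o, .o, .o, .o, .o], [.o, .o, .l, .o, .o, .o, .o, .o, .o, .o, .o, .o, .o, .o], [.o, .o, .w, .l, .o, .o, .o, .o, .o, .o, .o, .o, .o, .o], [.o, .o, .o, .o, .l, .o, .o, .o, .o, .o, .o, .o, .o, .o], [.o, .o, .o, .o, .o, .l, .o, .o, .o, .o, .o, .o, .o, .o], [.o, .o, .o, .o, .o, .w, .l, .o, .o, .o, .o, .o, .o, .o], [.o, .o, .o, .o, .o, .o, .o, .l, .o, .o, .o, .o, .o, .o], [.w, .o, .o, .o, .o, .o, .o, .v, .l, .o, .o, .o, .o, .o], [.o, .o, .o, .o, .o, .o, .o, .o, .o, .l, .o, .o, .o, .o], [.o, .o, .o, .o, .o, .o, .o, .o, .o, .w, .l, .o, .o, .o], [.o, .o, .o, .o, .o, .o, .o, .o, .o, .o, .o, .l, .o, .o], [.o, .o, .o, .o, .o, .o, .o, .o, .o, .o, .o, .o, .l, .o], [.o, .o, .o, .o, .o, .o, .o, .o, .o, .o, .o, .o, .w, .l]]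
theorem xl3_eq : xM ⟨6, by decide⟩ .w = xl3 := by decide +kernel
theorem xl3_sq : xl3 * xl3 = 1 := by decide +kernel
def xG3 : GL IdxG F4 := ⟨xl3, xl3, xl3_sq, xl3_sq⟩
theorem xG3_mem : xG3 ∈ chevG2.group F4 := Subgroup.subset_closure ⟨⟨6, by decide⟩, .w, xl3_eq.symm⟩

def xl4 : MG := mkM [[.l, .o, .l, .o, .o, .o, .o, .o, .o, .o, .o, .o, .o, .o], [.o, .l, .o, .o, .o, .o, .o, .o, .o, .o, .o, .o, .o, .o], [.o, .o, .l, .o, .o, .o, .o, .o, .o, .o, .o, .o, .o, .o], [.o, .o, .o, .l, .o, .o, .o, .o, .o, .o, .o, .o, .o, .o], [.o, .o, .o, .o, .l, .o, .o, .o, .o, .o, .o, .o, .o, .o], [.o, .o, .o, .o, .o, .l, .o, .o, .o, .o, .o, .o, .o, .o], [.o, .o, .o, .o, .o, .o, .l, .o, .o, .o, .o, .o, .o, .o], [.o, .o, .o, .o, .o, .o, .o, .l, .o, .o, .o, .o, .o, .o], [.o, .o, .o, .l, .o, .o, .o, .o, .l, .o, .o, .o, .o, .o], [.o, .o, .o, .o, .o, .o, .o, .o, .o, .l, .o,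 .o, .o, .o], [.o, .o, .o, .o, .l, .o, .o, .o, .o, .o, .l, .o, .o, .o], [.o, .o, .o, .o, .o, .l, .o, .o, .o, .o, .o, .l, .o, .o], [.o, .o, .o, .o, .o, .o, .o, .l, .o, .o, .o, .o, .l, .o], [.o, .l, .l, .o, .o, .o, .o, .o, .o, .o, .o, .o, .o, .l]]
theorem xl4_eq : xM ⟨11, by decide⟩ .l = xl4 := by decide +kernel
theorem xl4_sq : xl4 * xl4 = 1 := by decide +kernel
def xG4 : GL IdxG F4 := ⟨xl4, xl4, xl4_sq, xl4_sq⟩
theorem xG4_mem : xG4 ∈ chevG2.group F4 := Subgroup.subset_closure ⟨⟨11, by decide⟩, .l, xl4_eq.symm⟩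

def xl5 : MG := mkM [[.l, .o, .o, .o, .o, .o, .o, .o, .o, .o, .o, .o, .o, .o], [.o, .l, .o, .o, .l, .o, .o, .o, .o, .o, .o, .o, .o, .o], [.o, .o, .l, .o, .o, .o, .o, .o, .o, .o, .o, .o, .o, .o], [.o, .o, .o, .l, .o, .o, .o, .o, .o, .o, .o, .o, .o, .o], [.o, .o, .o, .o, .l, .o, .o, .o, .o, .o, .o, .o, .o, .o], [.o, .o, .l, .o, .o, .l, .o, .o, .o, .o, .o, .o, .o, .o], [.o, .o, .o, .l, .o, .o, .l, .o, .o, .o, .o, .o, .o, .o], [.o, .o, .o, .o, .o, .o, .o, .l, .o, .o, .o, .o, .o, .o], [.o, .o, .o, .o, .o, .o, .o, .o, .l, .o, .o, .o, .o, .o], [.o, .o, .l, .o, .o, .o, .o, .o, .o, .l, .o, .o, .o, .o], [.o, .o, .o, .l, .o, .o, .o, .o, .o, .o, .l, .o, .o, .o], [.l, .o, .o, .o, .l, .o, .o, .o, .o, .o, .o, .l, .o, .o], [.o, .o, .l, .o, .o, .l, .o, .o, .o, .l, .o, .o, .l, .o], [.o, .o, .o, .l, .o, .o, .l, .o, .o, .o, .l, .o, .o, .l]]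
theorem xl5_eq : xM ⟨9, by decide⟩ .l = xl5 := by decide +kernel
theorem xl5_sq : xl5 * xl5 = 1 := by decide +kernel
def xG5 : GL IdxG F4 := ⟨xl5, xl5, xl5_sq, xl5_sq⟩
theorem xG5_mem : xG5 ∈ chevG2.group F4 := Subgroup.subset_closure ⟨⟨9, by decide⟩, .l, xl5_eq.symm⟩

theorem Ta_word : xl0 * xl1 * xl0 * xl2 * xl1 * xl0 * xl3 * xl2 * xl4 * xl2 * xl3 * xl0 * xl1 * xl2 * xl0 * xl1 * xl0 = ma := by decide +kernel
theorem Ta_mem : TG .a ∈ chevG2.group F4 := by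
  have h : TG .a = xG0 * xG1 * xG0 * xG2 * xG1 * xG0 * xG3 * xG2 * xG4 * xG2 * xG3 * xG0 * xG1 * xG2 * xG0 * xG1 * xG0 := Units.ext Ta_word.symm
  rw [h]
  exact (Subgroup.mul_mem _ (Subgroup.mul_mem _ (Subgroup.mul_mem _ (Subgroup.mul_mem _ (Subgroup.mul_mem _ (Subgroup.mul_mem _ (Subgroup.mul_mem _ (Subgroup.mul_mem _ (Subgroup.mul_mem _ (Subgroup.mul_mem _ (Subgroup.mul_mem _ (Subgroup.mul_mem _ (Subgroup.mul_mem _ (Subgroup.mul_mem _ (Subgroup.mul_mem _ (Subgroup.mul_mem _ xG0_mem xG1_mem) xG0_mem) xG2_mem) xG1_mem) xG0_mem) xG3_mem) xG2_mem) xG4_mem) xG2_mem) xG3_mem) xG0_mem) xG1_mem) xG2_mem) xG0_mem) xG1_mem) xG0_mem)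

theorem Tb_word : xl0 * xl3 * xl2 * xl0 * xl3 * xl2 * xl1 * xl3 * xl2 * xl0 * xl3 * xl2 * xl4 * xl2 * xl3 * xl0 * xl2 * xl3 * xl1 * xl2 * xl3 * xl0 * xl2 * xl3 * xl0 = mb := by decide +kernel
theorem Tb_mem : TG .b ∈ chevG2.group F4 := by
  have h : TG .b = xG0 * xG3 * xG2 * xG0 * xG3 * xG2 * xG1 * xG3 * xG2 * xG0 * xG3 * xG2 * xG4 * xG2 * xG3 * xG0 * xG2 * xG3 * xG1 * xG2 * xG3 * xG0 * xG2 * xG3 * xG0 := Units.ext Tb_word.symm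
  rw [h]
  exact (Subgroup.mul_mem _ (Subgroup.mul_mem _ (Subgroup.mul_mem _ (Subgroup.mul_mem _ (Subgroup.mul_mem _ (Subgroup.mul_mem _ (Subgroup.mul_mem _ (Subgroup.mul_mem _ (Subgroup.mul_mem _ (Subgroup.mul_mem _ (Subgroup.mul_mem _ (Subgroup.mul_mem _ (Subgroup.mul_mem _ (Subgroup.mul_mem _ (Subgroup.mul_mem _ (Subgroup.mul_mem _ (Subgroup.mul_mem _ (Subgroup.mul_mem _ (Subgroup.mul_mem _ (Subgroup.mul_mem _ (Subgroup.mul_mem _ (Subgroup.mul_mem _ (Subgroup.mul_mem _ (Subgroup.mul_mem _ xG0_mem xG3_mem) xG2_mem) xG0_mem) xG3_mem) xG2_mem) xG1_mem) xG3_mem) xG2_mem) xG0_mem) xG3_mem) xG2_mem) xG4_mem) xG2_mem) xG3_mem) xG0_mem) xG2_mem) xG3_mem) xG1_mem) xG2_mem) xG3_mem) xG0_mem) xG2_mem) xG3_mem) xG0_mem)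

theorem Tc_word : xl0 * xl1 * xl0 * xl2 * xl4 * xl2 * xl0 * xl1 * xl0 = mc := by decide +kernel
theorem Tc_mem : TG .c ∈ chevG2.group F4 := by
  have h : TG .c = xG0 * xG1 * xG0 * xG2 * xG4 * xG2 * xG0 * xG1 * xG0 := Units.ext Tc_word.symm
  rw [h]
  exact (Subgroup.mul_mem _ (Subgroup.mul_mem _ (Subgroup.mul_mem _ (Subgroup.mul_mem _ (Subgroup.mul_mem _ (Subgroup.mul_mem _ (Subgroup.mul_mem _ (Subgroup.mul_mem _ xG0_mem xG1_mem) xG0_mem) xG2_mem) xG4_mem) xG2_mem) xG0_mem) xG1_mem) xG0_mem)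

theorem Td_word : xl3 * xl1 * xl3 * xl2 * xl0 * xl3 * xl2 * xl3 * xl2 * xl0 * xl5 * xl0 * xl2 * xl3 * xl2 * xl3 * xl0 * xl2 * xl3 * xl1 * xl3 = md := by decide +kernel
theorem Td_mem : TG .d ∈ chevG2.group F4 := by
  have h : TG .d = xG3 * xG1 * xG3 * xG2 * xG0 * xG3 * xG2 * xG3 * xG2 * xG0 * xG5 * xG0 * xG2 * xG3 * xG2 * xG3 * xG0 * xG2 * xG3 * xG1 * xG3 := Units.ext Td_word.symm
  rw [h]
  exact (Subgroup.mul_mem _ (Subgroup.mul_mem _ (Subgroup.mul_mem _ (Subgroup.mul_mem _ (Subgroup.mul_mem _ (Subgroup.mul_mem _ (Subgroup.mul_mem _ (Subgroup.mul_mem _ (Subgroup.mul_mem _ (Subgroup.mul_mem _ (Subgroup.mul_mem _ (Subgroup.mul_mem _ (Subgroup.mul_mem _ (Subgroup.mul_mem _ (Subgroup.mul_mem _ (Subgroup.mul_mem _ (Subgroup.mul_mem _ (Subgroup.mul_mem _ (Subgroup.mul_mem _ (Subgroup.mul_mem _ xG3_mem xG1_mem) xG3_mem) xG2_mem) xG0_mem) xG3_mem) xG2_mem)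 xG3_mem) xG2_mem) xG0_mem) xG5_mem) xG0_mem) xG2_mem) xG3_mem) xG2_mem) xG3_mem) xG0_mem) xG2_mem) xG3_mem) xG1_mem) xG3_mem)

theorem Te_word : xl0 * xl1 * xl0 * xl2 * xl1 * xl0 * xl2 * xl3 * xl1 * xl0 * xl2 * xl3 * xl1 * xl5 * xl1 * xl3 * xl2 * xl0 * xl1 * xl3 * xl2 * xl0 * xl1 * xl2 * xl0 * xl1 * xl0 = me := by decide +kernel
theorem Te_mem : TG .e ∈ chevG2.group F4 := by
  have h : TG .e = xG0 * xG1 * xG0 * xG2 * xG1 * xG0 * xG2 * xG3 * xG1 * xG0 * xG2 * xG3 * xG1 * xG5 * xG1 * xG3 * xG2 * xG0 * xG1 * xG3 * xG2 * xG0 * xG1 * xG2 * xG0 * xG1 * xG0 := Units.ext Te_word.symm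
  rw [h]
  exact (Subgroup.mul_mem _ (Subgroup.mul_mem _ (Subgroup.mul_mem _ (Subgroup.mul_mem _ (Subgroup.mul_mem _ (Subgroup.mul_mem _ (Subgroup.mul_mem _ (Subgroup.mul_mem _ (Subgroup.mul_mem _ (Subgroup.mul_mem _ (Subgroup.mul_mem _ (Subgroup.mul_mem _ (Subgroup.mul_mem _ (Subgroup.mul_mem _ (Subgroup.mul_mem _ (Subgroup.mul_mem _ (Subgroup.mul_mem _ (Subgroup.mul_mem _ (Subgroup.mul_mem _ (Subgroup.mul_mem _ (Subgroup.mul_mem _ (Subgroup.mul_mem _ (Subgroup.mul_mem _ (Subgroup.mul_mem _ (Subgroup.mul_mem _ (Subgroup.mul_mem _ xG0_mem xG1_mem) xG0_mem) xG2_mem) xG1_mem) xG0_mem) xG2_mem) xG3_mem) xG1_mem) xG0_mem) xG2_mem) xG3_mem) xG1_mem) xG5_mem) xG1_mem) xG3_mem) xG2_mem) xG0_mem) xG1_mem) xG3_mem) xG2_mem) xG0_mem) xG1_mem) xG2_mem) xG0_mem) xG1_mem) xG0_mem)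

theorem Tf_word : xl1 * xl3 * xl2 * xl0 * xl3 * xl2 * xl0 * xl1 * xl3 * xl2 * xl3 * xl2 * xl0 * xl2 * xl4 * xl2 * xl0 * xl2 * xl3 * xl2 * xl3 * xl1 * xl0 * xl2 * xl3 * xl0 * xl2 * xl3 * xl1 = mf := by decide +kernel
theorem Tf_mem : TG .f ∈ chevG2.group F4 := by
  have h : TG .f = xG1 * xG3 * xG2 * xG0 * xG3 * xG2 * xG0 * xG1 * xG3 * xG2 * xG3 * xG2 * xG0 * xG2 * xG4 * xG2 * xG0 * xG2 * xG3 * xG2 * xG3 * xG1 * xG0 * xG2 * xG3 * xG0 * xG2 * xG3 * xG1 := Units.ext Tf_word.symm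
  rw [h]
  exact (Subgroup.mul_mem _ (Subgroup.mul_mem _ (Subgroup.mul_mem _ (Subgroup.mul_mem _ (Subgroup.mul_mem _ (Subgroup.mul_mem _ (Subgroup.mul_mem _ (Subgroup.mul_mem _ (Subgroup.mul_mem _ (Subgroup.mul_mem _ (Subgroup.mul_mem _ (Subgroup.mul_mem _ (Subgroup.mul_mem _ (Subgroup.mul_mem _ (Subgroup.mul_mem _ (Subgroup.mul_mem _ (Subgroup.mul_mem _ (Subgroup.mul_mem _ (Subgroup.mul_mem _ (Subgroup.mul_mem _ (Subgroup.mul_mem _ (Subgroup.mul_mem _ (Subgroup.mul_mem _ (Subgroup.mul_mem _ (Subgroup.mul_mem _ (Subgroup.mul_mem _ (Subgroup.mul_mem _ (Subgroup.mul_mem _ xG1_mem xG3_mem) xG2_mem) xG0_mem) xG3_mem) xG2_mem) xG0_mem) xG1_mem) xG3_mem) xG2_mem) xG3_mem) xG2_mem) xG0_mem) xG2_mem) xG4_mem) xG2_mem) xG0_mem) xG2_mem) xG3_mem) xG2_mem) xG3_mem) xG1_mem) xG0_mem) xG2_mem) xG3_mem) xG0_mem) xG2_mem) xG3_mem) xG1_mem)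

theorem TG_mem : ∀ a, TG a ∈ chevG2.group F4
  | .a => Ta_mem
  | .b => Tb_mem
  | .c => Tc_mem
  | .d => Td_mem
  | .e => Te_mem
  | .f => Tf_mem

theorem T_rel : ∀ r ∈ coxList OPG24.edges ++ OPG24.extra, (FreeGroup.lift TG r).1 = 1 := by
  decide +kernel

noncomputable def χ : QG →* GL IdxG F4 :=
  presMap OPG24.edges OPG24.extra TG (fun r hr => Units.ext (T_rel r hr))

theorem χ_of (a : OPG24.Gen) : χ (PresentedGroup.of a) = TG a := presMap_of _ _ _ _ a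

theorem χ_ne : χ (PresentedGroup.of .a) ≠ 1 := by
  rw [χ_of]
  intro h
  have h1 : mT .a = 1 := congrArg Units.val h
  revert h1
  decide +kernel

theorem χ_inj : Function.Injective χ := injective_of_simple G24O.main.1 χ χ_ne

theorem χ_le : χ.range ≤ chevG2.group F4 := by
  apply range_le_of_gens
  intro a
  rw [χ_of]
  exact TG_mem a

theorem card_group : Nat.card (chevG2.group F4) = 251596800 := by
  have h := Cfsg.Agent.S1059.result (F := F4) F4.card_eq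
  rw [h]
  norm_num

theorem χ_range : χ.range = chevG2.group F4 := by
  have hf : Finite (chevG2.group F4) := Nat.finite_of_card_ne_zero (by rw [card_group]; norm_num)
  apply Subgroup.eq_of_le_of_card_ge χ_le
  rw [card_group]
  have e2 : QG ≃* χ.range := MonoidHom.ofInjective χ_inj
  rw [← Nat.card_congr e2.toEquiv, card_QG]

theorem main_G24 : Nonempty (HG ≃* chevG2.group F4) := by
  have e1 : QG ≃* HG := MulEquiv.ofBijective ψG ψG_bij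
  have e2 : QG ≃* χ.range := MonoidHom.ofInjective χ_inj
  have e3 : χ.range ≃* chevG2.group F4 := MulEquiv.subgroupCongr χ_range
  exact ⟨e1.symm.trans (e2.trans e3)⟩

end Cfsg.Agent.Lib.ToddCox.SuzCov
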